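import Mathlib
import Cfsg.Prelude.Def_SolvableStructure
import Cfsg.Agent.Lib.Helper61.CSNDefs
import Cfsg.Agent.Lib.Helper2.Carter
import Cfsg.Agent.Lib.Helper13.Carter
import Cfsg.Agent.Lib.Helper12.MinNormal
import Cfsg.Agent.Lib.Helper12.Card
import Cfsg.Agent.Lib.Helper12.ComplSys

set_option autoImplicit false
open Cfsg Cfsg.Agent.Lib.Helper61.CSN
open scoped Pointwise

namespace Cfsg.Agent.Lib.Helper30.CSN

/-- a subgroup whose index is the full `q`-part has order prime to `q` -/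
theorem coprime_card_of_index {G : Type*} [Group G] [Finite G] (q : ℕ) [Fact q.Prime]
    (Kq : Subgroup G) (hKq : Kq.index = q ^ (Nat.card G).factorization q) :
    (Nat.card Kq).Coprime q := by
  have hq : q.Prime := Fact.out
  apply Nat.Coprime.symm
  rw [Nat.Prime.coprime_iff_not_dvd hq]
  intro h
  have h1 := Subgroup.card_mul_index Kq
  rw [hKq] at h1
  have h2 : q ^ ((Nat.card G).factorization q + 1) ∣ Nat.card G := by
    rw [pow_succ, mul_comm]
    calc q * q ^ (Nat.card G).factorization q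
        ∣ Nat.card Kq * q ^ (Nat.card G).factorization q := Nat.mul_dvd_mul h dvd_rfl
      _ = Nat.card G := h1
  exact Nat.pow_succ_factorization_not_dvd Nat.card_pos.ne' hq h2

/-- the `p`-complement of a nilpotent `C` lies in `Kp` -/
theorem pcompl_le {G : Type*} [Group G] [Finite G] (p : ℕ) (Kp C Q1 : Subgroup G)
    (hQC : Q1 ≤ C) (hQ : (Nat.card Q1).Coprime p)
    (h : ∀ x ∈ C, (orderOf x).Coprime p → x ∈ Kp) : Q1 ≤ Kp := by
  intro x hx
  apply h x (hQC hx)
  have h1 : orderOf x ∣ Nat.card Q1 := by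
    have := orderOf_dvd_natCard (⟨x, hx⟩ : Q1)
    rwa [Subgroup.orderOf_mk] at this
  exact Nat.Coprime.coprime_dvd_left h1 hQ

/-- BASE1 -/
theorem base1 {G : Type*} [Group G] [Finite G] (q : ℕ) [Fact q.Prime] (Kq C N : Subgroup G)
    [N.Normal] (hC : Group.IsNilpotent C) (hN : IsPGroup q N) (hCN : C ⊔ N = ⊤)
    (hinf : C ⊓ N = ⊥) (hKq : Kq.index = q ^ (Nat.card G).factorization q)
    (h : ∀ x ∈ C, (orderOf x).Coprime q → x ∈ Kq) :
    Kq ≤ C ∧ C ≤ Subgroup.normalizer (Kq : Set G) := by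
  obtain ⟨Q1, hQC, hCQ, hQ, k, hk⟩ :=
    Cfsg.Agent.Lib.Helper2.exists_pcomplement_of_isNilpotent q C hC
  have hQK : Q1 ≤ Kq := pcompl_le q Kq C Q1 hQC hQ h
  obtain ⟨a, ha⟩ := hN.exists_card_eq
  have h1 := Cfsg.Agent.Lib.Helper12.card_sup_mul_card_inf C N
  rw [hCN, hinf, Subgroup.card_top, Subgroup.card_bot, mul_one, hk, ha] at h1
  have hKc := coprime_card_of_index q Kq hKq
  have h2 : Nat.card Kq ∣ q ^ k * Nat.card Q1 * q ^ a := by
    rw [← h1]; exact Subgroup.card_subgroup_dvd_card _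
  have h3 : Nat.card Kq ∣ Nat.card Q1 := by
    have h4 : Nat.card Kq ∣ q ^ (k + a) * Nat.card Q1 := by
      rw [pow_add]; convert h2 using 1; ring
    exact (Nat.Coprime.dvd_mul_left (Nat.Coprime.pow_right _ hKc)).1 h4
  have h5 : Q1 = Kq :=
    Subgroup.eq_of_le_of_card_ge hQK (Nat.le_of_dvd Nat.card_pos h3)
  rw [← h5]
  exact ⟨hQC, hCQ⟩

end Cfsg.Agent.Lib.Helper30.CSN
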