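import Mathlib
import Cfsg.Prelude.Def_SolvableStructure
import Cfsg.Agent.Lib.Helper61.CSNDefs
import Cfsg.Agent.Lib.Helper2.Carter
import Cfsg.Agent.Lib.Helper13.Carter
import Cfsg.Agent.Lib.Helper12.MinNormal
import Cfsg.Agent.Lib.Helper12.Card
import Cfsg.Agent.Lib.Helper12.ComplSys

set_option autoImplicit false
open Cfsg Cfsg.Agent.Lib.Helper61.CSN
open scoped Pointwise

namespace Cfsg.Agent.Lib.Helper30.CSN

/-- BASE2 -/
theorem base2 {G : Type*} [Group G] [Finite G] (q : ℕ) [Fact q.Prime] (E C N : Subgroup G)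
    [N.Normal] [IsMulCommutative N] (hN : IsPGroup q N) (hCN : C ⊔ N = ⊤) (hinf : C ⊓ N = ⊥)
    (hCC : Subgroup.normalizer (C : Set G) = C)
    (hE : E.index = q ^ (Nat.card G).factorization q)
    (hEC : E ≤ C) (hCE : C ≤ Subgroup.normalizer (E : Set G)) :
    N ⊓ Subgroup.centralizer (E : Set G) = ⊥ := by
  have hq : q.Prime := Fact.out
  by_contra hZ
  set Z : Subgroup G := N ⊓ Subgroup.centralizer (E : Set G) with hZdef
  have hNZ : N ≤ Subgroup.normalizer (Z : Set G) := by
    intro n hn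
    apply Cfsg.Agent.Lib.Helper13.mem_normalizer_of_conj_mem
    intro z hz
    have hzN : z ∈ N := hz.1
    have hcomm : n * z = z * n := by
      have := mul_comm' (⟨n, hn⟩ : N) ⟨z, hzN⟩
      exact congrArg Subtype.val this
    rw [hcomm, mul_inv_cancel_right]
    exact hz
  have hCZ : C ≤ Subgroup.normalizer (Z : Set G) := by
    intro c hc
    apply Cfsg.Agent.Lib.Helper13.mem_normalizer_of_conj_mem
    intro z hz
    refine Subgroup.mem_inf.2 ⟨‹N.Normal›.conj_mem z hz.1 c, ?_⟩
    rw [Subgroup.mem_centralizer_iff]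
    intro e he
    have he' : c⁻¹ * e * c ∈ E := by
      have h1 := hCE (C.inv_mem hc)
      have h2 := (Subgroup.mem_normalizer_iff.1 h1 e).1 he
      simpa using h2
    have h3 := (Subgroup.mem_centralizer_iff.1 hz.2) _ he'
    calc e * (c * z * c⁻¹) = c * ((c⁻¹ * e * c) * z) * c⁻¹ := by group
      _ = c * (z * (c⁻¹ * e * c)) * c⁻¹ := by rw [h3]
      _ = c * z * c⁻¹ * e := by group
  have hZtop : Subgroup.normalizer (Z : Set G) = ⊤ := by
    rw [eq_top_iff, ← hCN]; exact sup_le hCZ hNZ
  obtain ⟨P, hNP⟩ := hN.exists_le_sylow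
  have hne := Cfsg.Agent.Lib.Helper12.inf_centralizer_ne_bot (P : Subgroup G) P.2 Z
    (le_trans inf_le_left hNP) (by rw [hZtop]; exact le_top) hZ
  obtain ⟨z, hz, hz1⟩ := (Subgroup.bot_or_exists_ne_one _).resolve_left hne
  have hEP : E ⊔ (P : Subgroup G) = ⊤ := by
    rw [← Subgroup.index_eq_one]
    have h1 : (E ⊔ (P : Subgroup G)).index ∣ q ^ (Nat.card G).factorization q := by
      rw [← hE]; exact Subgroup.index_dvd_of_le le_sup_left
    have h2 : (E ⊔ (P : Subgroup G)).index ∣ (P : Subgroup G).index :=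
      Subgroup.index_dvd_of_le le_sup_right
    have h3 : ((P : Subgroup G).index).Coprime (q ^ (Nat.card G).factorization q) := by
      apply Nat.Coprime.pow_right
      exact ((Nat.Prime.coprime_iff_not_dvd hq).2 P.not_dvd_index).symm
    exact Nat.eq_one_of_dvd_coprimes h3 h2 h1
  have hzc : ∀ g : G, g * z = z * g := by
    have h1 : E ⊔ (P : Subgroup G) ≤ Subgroup.centralizer ({z} : Set G) := by
      apply sup_le
      · intro e he
        rw [Subgroup.mem_centralizer_singleton_iff]
        exact (Subgroup.mem_centralizer_iff.1 hz.1.2) e he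
      · intro e he
        rw [Subgroup.mem_centralizer_singleton_iff]
        exact (Subgroup.mem_centralizer_iff.1 hz.2) e he
    intro g
    have h2 : g ∈ Subgroup.centralizer ({z} : Set G) := h1 (by rw [hEP]; trivial)
    exact Subgroup.mem_centralizer_singleton_iff.1 h2
  have hzC : z ∈ C := by
    rw [← hCC]
    apply Cfsg.Agent.Lib.Helper13.mem_normalizer_of_conj_mem
    intro c hc
    rw [← hzc c, mul_inv_cancel_right]
    exact hc
  have : z ∈ C ⊓ N := ⟨hzC, hz.1.1⟩
  rw [hinf, Subgroup.mem_bot] at this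
  exact hz1 this

end Cfsg.Agent.Lib.Helper30.CSN
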