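import Mathlib
import Cfsg.Prelude.Def_SolvableStructure
import Cfsg.Agent.Lib.Helper61.CSNDefs
import Cfsg.Agent.Lib.Helper2.Carter
import Cfsg.Agent.Lib.Helper13.Carter
import Cfsg.Agent.Lib.Helper12.MinNormal
import Cfsg.Agent.Lib.Helper12.Card
import Cfsg.Agent.Lib.Helper12.ComplSys
import Cfsg.Agent.Lib.Helper30.CSNBASE1
import Cfsg.Agent.Lib.Helper30.CSNBASE2

set_option autoImplicit false
open Cfsg Cfsg.Agent.Lib.Helper61.CSN
open scoped Pointwise

namespace Cfsg.Agent.Lib.Helper30.CSN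

/-- BASE -/
theorem base {G : Type*} [Group G] [Finite G] (q : ℕ) [Fact q.Prime] (Kq C N : Subgroup G)
    (hmin : Cfsg.Agent.Lib.Helper12.IsMinNormal N) [IsMulCommutative N] (hN : IsPGroup q N)
    (hC : IsCarterSubgroup C) (hCN : C ⊔ N = ⊤)
    (hKq : Kq.index = q ^ (Nat.card G).factorization q)
    (h : ∀ x ∈ C, (orderOf x).Coprime q → x ∈ Kq) :
    Subgroup.normalizer (Kq : Set G) ≤ C := by
  haveI hNn : N.Normal := hmin.1
  by_cases hNC : N ≤ C
  · have : C = ⊤ := by rw [← hCN]; exact (sup_eq_left.2 hNC).symm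
    rw [this]; exact le_top
  -- `C ⊓ N` is normal
  have hn1 : N ≤ Subgroup.normalizer ((C ⊓ N : Subgroup G) : Set G) := by
    intro n hn
    apply Cfsg.Agent.Lib.Helper13.mem_normalizer_of_conj_mem
    intro z hz
    have hcomm : n * z = z * n := by
      have := mul_comm' (⟨n, hn⟩ : N) ⟨z, hz.2⟩
      exact congrArg Subtype.val this
    rw [hcomm, mul_inv_cancel_right]
    exact hz
  have hn2 : C ≤ Subgroup.normalizer ((C ⊓ N : Subgroup G) : Set G) := by
    intro c hc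
    apply Cfsg.Agent.Lib.Helper13.mem_normalizer_of_conj_mem
    intro z hz
    exact Subgroup.mem_inf.2
      ⟨C.mul_mem (C.mul_mem hc hz.1) (C.inv_mem hc), hNn.conj_mem z hz.2 c⟩
  have hnorm : (C ⊓ N : Subgroup G).Normal := by
    rw [← Subgroup.normalizer_eq_top_iff, eq_top_iff, ← hCN]
    exact sup_le hn2 hn1
  have hinf : C ⊓ N = ⊥ := by
    rcases hmin.2.2 _ hnorm inf_le_right with h1 | h1
    · exact h1
    · exact absurd (inf_eq_right.1 h1) hNC
  obtain ⟨hKC, hCK⟩ := base1 q Kq C N hC.1 hN hCN hinf hKq h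
  have hcent := base2 q Kq C N hN hCN hinf hC.2 hKq hKC hCK
  intro g hg
  have hgt : g ∈ C ⊔ N := by rw [hCN]; trivial
  obtain ⟨c, hc, n, hn, rfl⟩ := Subgroup.mem_sup_of_normal_right.1 hgt
  have hnK : n ∈ Subgroup.normalizer (Kq : Set G) := by
    have h1 := (Subgroup.normalizer (Kq : Set G)).mul_mem
      ((Subgroup.normalizer (Kq : Set G)).inv_mem (hCK hc)) hg
    simpa using h1
  have hn1' : n ∈ N ⊓ Subgroup.centralizer (Kq : Set G) := by
    refine Subgroup.mem_inf.2 ⟨hn, ?_⟩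
    rw [Subgroup.mem_centralizer_iff]
    intro e he
    have h1 : n * e * n⁻¹ ∈ Kq := (Subgroup.mem_normalizer_iff.1 hnK e).1 he
    have h2 : n * e * n⁻¹ * e⁻¹ ∈ Kq := Kq.mul_mem h1 (Kq.inv_mem he)
    have h3 : n * e * n⁻¹ * e⁻¹ ∈ N := by
      have : n * e * n⁻¹ * e⁻¹ = n * (e * n⁻¹ * e⁻¹) := by group
      rw [this]
      exact N.mul_mem hn (hNn.conj_mem _ (N.inv_mem hn) e)
    have h4 : n * e * n⁻¹ * e⁻¹ ∈ C ⊓ N := ⟨hKC h2, h3⟩
    rw [hinf, Subgroup.mem_bot] at h4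
    have h5 : n * e = e * n := by
      calc n * e = (n * e * n⁻¹ * e⁻¹) * (e * n) := by group
        _ = e * n := by rw [h4, one_mul]
    exact h5.symm
  rw [hcent, Subgroup.mem_bot] at hn1'
  rw [hn1', mul_one]
  exact hc

end Cfsg.Agent.Lib.Helper30.CSN
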