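import Cfsg.Agent.Lib.Helper30.Transitivity
import Cfsg.Agent.S1324

set_option autoImplicit false

namespace Cfsg.Agent.Lib.Helper30

open Subgroup
open scoped Pointwise commutatorElement

variable {G : Type*} [Group G]

theorem centralizer_singleton_ne_top (hG : Cfsg.IsMinSimpleOddOrder G) {x : G} (hx : x ≠ 1) :
    centralizer ({x} : Set G) ≠ ⊤ := by
  intro h
  have hxc : x ∈ center G := by
    rw [mem_center_iff]
    intro g
    have : g ∈ centralizer ({x} : Set G) := h ▸ mem_top g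
    exact (mem_centralizer_iff.mp this x rfl).symm
  have := hG.2.1
  rcases (inferInstance : (center G).Normal).eq_bot_or_eq_top with h0 | h0
  · rw [h0, mem_bot] at hxc; exact hx hxc
  · apply hG.2.2.1
    refine ⟨⟨fun a b => ?_⟩⟩
    have : a ∈ center G := h0 ▸ mem_top a
    exact (mem_center_iff.mp this b).symm

/-- An elementary abelian `p`-group `E` of order at least `p ^ 2` normalizing a nontrivial `p'`-group `Q`
has a subgroup of index at most `p` with nontrivial fixed points on `Q`. -/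
theorem exists_hyperplane_fixed [Finite G] {p : ℕ} [Fact p.Prime] {E Q : Subgroup G}
    (hE : Cfsg.IsElementaryAbelian p E) (hE2 : p ^ 2 ≤ Nat.card E) (hQ : ¬ p ∣ Nat.card Q)
    (hEQ : E ≤ normalizer (Q : Set G)) (hQ1 : Q ≠ ⊥) :
    ∃ B : Subgroup G, B ≤ E ∧ B.relIndex E ≤ p ∧ Q ⊓ centralizer (B : Set G) ≠ ⊥ := by
  by_contra hcon
  push Not at hcon
  apply hQ1
  rw [Cfsg.Agent.S1324.result p E Q hE hE2 hQ hEQ]
  apply le_bot_iff.mp
  apply iSup_le
  rintro ⟨B, hB1, hB2⟩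
  exact (hcon B hB1 hB2).le

/-- extracting an elementary abelian subgroup from the failure of a rank bound -/
theorem exists_elementary_of_not_rankLE {Z : Subgroup G} {k : ℕ} (h : ¬ Cfsg.RankLE k Z) :
    ∃ p : ℕ, p.Prime ∧ ∃ E : Subgroup G, E ≤ Z ∧ Cfsg.IsElementaryAbelian p E ∧ p ^ k < Nat.card E := by
  unfold Cfsg.RankLE Cfsg.PRankLE at h
  push Not at h
  obtain ⟨p, hp, E', hE'c, hE'p, hE'k⟩ := h
  refine ⟨p, hp, E'.map Z.subtype, map_subtype_le _, ⟨?_, ?_⟩, ?_⟩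
  · refine ⟨⟨?_⟩⟩
    rintro ⟨_, a, ha, rfl⟩ ⟨_, b, hb, rfl⟩
    apply Subtype.ext
    have := hE'c.is_comm.comm ⟨a, ha⟩ ⟨b, hb⟩
    have h2 := congrArg (fun z : E' => ((z : Z) : G)) this
    simpa using h2
  · rintro _ ⟨a, ha, rfl⟩
    have := hE'p a ha
    have h2 := congrArg (fun z : Z => (z : G)) this
    simpa using h2
  · rw [card_map_of_injective Z.subtype_injective]
    exact hE'k

theorem isPGroup_of_elementary {p : ℕ} {E : Subgroup G} (hE : Cfsg.IsElementaryAbelian p E) : IsPGroup p E := by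
  intro x
  refine ⟨1, ?_⟩
  apply Subtype.ext
  simpa using hE.2 x x.2

theorem kconj_of_common_element [Finite G] (hG : Cfsg.IsMinSimpleOddOrder G) {A : Subgroup G}
    (hA : Cfsg.TransitivityHypothesis A) {q : ℕ} [hq : Fact q.Prime] (hqA : ¬ q ∣ Nat.card A)
    {Q₁ Q₂ : Subgroup G} (h₁ : Q₁ ∈ Cfsg.maxInvSubgroups ⊤ A {q}) (h₂ : Q₂ ∈ Cfsg.maxInvSubgroups ⊤ A {q})
    {x : G} (hx1 : x ≠ 1) (hxA : x ∈ centralizer (A : Set G))
    (hx₁ : Q₁ ⊓ centralizer ({x} : Set G) ≠ ⊥) (hx₂ : Q₂ ⊓ centralizer ({x} : Set G) ≠ ⊥) :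
    KConj A Q₁ Q₂ := by
  apply kconj_of_common_overgroup hG hA hqA h₁ h₂ (centralizer_singleton_ne_top hG hx1)
  · intro a ha
    rw [mem_centralizer_iff]
    rintro _ rfl
    exact (mem_centralizer_iff.mp hxA a ha).symm
  · rwa [inf_comm]
  · rwa [inf_comm]

theorem not_dvd_card_of_isPGroup [Finite G] {p q : ℕ} (hp : p.Prime) [Fact q.Prime] (hpq : p ≠ q)
    {Q : Subgroup G} (hQ : IsPGroup q Q) : ¬ p ∣ Nat.card Q :=
  fun h => hpq (piNat_singleton_of_isPGroup hQ p hp h)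

theorem dvd_card_of_elementary [Finite G] {p : ℕ} [hp : Fact p.Prime] {E : Subgroup G}
    (hE : Cfsg.IsElementaryAbelian p E) (h1 : 1 < Nat.card E) : p ∣ Nat.card E := by
  obtain ⟨n, hn⟩ := IsPGroup.iff_card.mp (isPGroup_of_elementary hE)
  rw [hn] at h1 ⊢
  have : n ≠ 0 := by
    rintro rfl
    simp at h1
  exact dvd_pow_self p this

theorem centralizer_le_centralizer_singleton {B : Subgroup G} {x : G} (hx : x ∈ B) :
    centralizer (B : Set G) ≤ centralizer ({x} : Set G) :=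
  centralizer_le (by simpa using hx)

/-- B & G, Theorem 7.3. -/
theorem kconj_of_rank_three [Finite G] (hG : Cfsg.IsMinSimpleOddOrder G) {A : Subgroup G}
    (hA : Cfsg.TransitivityHypothesis A) (hZ : ¬ Cfsg.RankLE 2 ↥(A ⊓ centralizer (A : Set G)))
    {q : ℕ} [hq : Fact q.Prime] (hqA : ¬ q ∣ Nat.card A)
    {Q₁ Q₂ : Subgroup G} (h₁ : Q₁ ∈ Cfsg.maxInvSubgroups ⊤ A {q}) (h₂ : Q₂ ∈ Cfsg.maxInvSubgroups ⊤ A {q}) :
    KConj A Q₁ Q₂ := by
  obtain ⟨p, hp, E, hEZ, hE, hEcard⟩ := exists_elementary_of_not_rankLE hZ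
  have : Fact p.Prime := ⟨hp⟩
  by_cases hb₁ : Q₁ = ⊥
  · have : Q₂ = Q₁ := h₁.2 Q₂ h₂.1 (hb₁ ▸ bot_le)
    rw [this]; exact KConj.refl _ _
  by_cases hb₂ : Q₂ = ⊥
  · have : Q₁ = Q₂ := h₂.2 Q₁ h₁.1 (hb₂ ▸ bot_le)
    rw [this]; exact KConj.refl _ _
  have hEA : E ≤ A := hEZ.trans inf_le_left
  have hi₁ := mem_invSubgroups_top_iff.mp h₁.1
  have hi₂ := mem_invSubgroups_top_iff.mp h₂.1
  have hp2 : 1 ≤ p ^ 2 := Nat.one_le_pow _ _ hp.pos
  have hpA : p ∣ Nat.card A := (dvd_card_of_elementary hE (by omega)).trans (card_dvd_of_le hEA)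
  have hpq : p ≠ q := fun h => hqA (h ▸ hpA)
  obtain ⟨B₁, hB₁E, hB₁i, hB₁Q⟩ := exists_hyperplane_fixed hE hEcard.le
    (not_dvd_card_of_isPGroup hp hpq hi₁.1) (hEA.trans hi₁.2) hb₁
  obtain ⟨B₂, hB₂E, hB₂i, hB₂Q⟩ := exists_hyperplane_fixed hE hEcard.le
    (not_dvd_card_of_isPGroup hp hpq hi₂.1) (hEA.trans hi₂.2) hb₂
  have hidx : (B₁ ⊓ B₂).relIndex E ≤ p * p := (relIndex_inf_le).trans (Nat.mul_le_mul hB₁i hB₂i)
  have hcard : Nat.card E = Nat.card ↥(B₁ ⊓ B₂) * (B₁ ⊓ B₂).relIndex E :=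
    card_eq_card_mul_relIndex (inf_le_left.trans hB₁E)
  have hne : B₁ ⊓ B₂ ≠ ⊥ := by
    intro h
    have hc1 : Nat.card ↥(B₁ ⊓ B₂) = 1 := by rw [h]; exact card_bot
    rw [hc1, one_mul] at hcard
    rw [hcard, pow_two] at hEcard
    omega
  obtain ⟨⟨x, hx⟩, hx1⟩ := (Subgroup.ne_bot_iff_exists_ne_one).mp hne
  have hx1' : x ≠ 1 := fun h => hx1 (Subtype.ext h)
  apply kconj_of_common_element hG hA hqA h₁ h₂ hx1' (hEZ (hB₁E hx.1)).2
  · intro h
    exact hB₁Q (le_bot_iff.mp (h ▸ inf_le_inf_left Q₁ (centralizer_le_centralizer_singleton hx.1)))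
  · intro h
    exact hB₂Q (le_bot_iff.mp (h ▸ inf_le_inf_left Q₂ (centralizer_le_centralizer_singleton hx.2)))

/-- B & G, Theorem 7.4. -/
theorem kconj_of_rank_two [Finite G] (hG : Cfsg.IsMinSimpleOddOrder G) {A : Subgroup G}
    (hA : Cfsg.TransitivityHypothesis A) (hZ : ¬ Cfsg.RankLE 1 ↥(A ⊓ centralizer (A : Set G)))
    {q : ℕ} [hq : Fact q.Prime] (hqA : ¬ q ∣ Nat.card A) (hqC : q ∣ Nat.card (centralizer (A : Set G)))
    {Q₁ Q₂ : Subgroup G} (h₁ : Q₁ ∈ Cfsg.maxInvSubgroups ⊤ A {q}) (h₂ : Q₂ ∈ Cfsg.maxInvSubgroups ⊤ A {q}) :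
    KConj A Q₁ Q₂ := by
  obtain ⟨p, hp, E, hEZ, hE, hEcard⟩ := exists_elementary_of_not_rankLE hZ
  have : Fact p.Prime := ⟨hp⟩
  have hEA : E ≤ A := hEZ.trans inf_le_left
  rw [pow_one] at hEcard
  have hpA : p ∣ Nat.card A :=
    (dvd_card_of_elementary hE (by have := hp.one_lt; omega)).trans (card_dvd_of_le hEA)
  have hpq : p ≠ q := fun h => hqA (h ▸ hpA)
  have hE2 : p ^ 2 ≤ Nat.card E := by
    obtain ⟨n, hn⟩ := IsPGroup.iff_card.mp (isPGroup_of_elementary hE)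
    have hn2 : 2 ≤ n := by
      by_contra hcon
      have h1 : n ≤ 1 := by omega
      have h2 : p ^ n ≤ p ^ 1 := Nat.pow_le_pow_right hp.pos h1
      rw [pow_one, ← hn] at h2
      omega
    rw [hn]
    exact Nat.pow_le_pow_right hp.pos hn2
  -- a nontrivial `q`-subgroup centralized by `A`
  obtain ⟨y, hy⟩ := exists_prime_orderOf_dvd_card' (G := centralizer (A : Set G)) q hqC
  set Q₀ := zpowers (y : G) with hQ₀
  have hy' : orderOf (y : G) = q := by rw [Subgroup.orderOf_coe]; exact hy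
  have hQ₀p : IsPGroup q Q₀ := IsPGroup.of_card (n := 1) (by rw [Nat.card_zpowers, hy', pow_one])
  have hQ₀C : Q₀ ≤ centralizer (A : Set G) := by rw [hQ₀, zpowers_le]; exact y.2
  have hQ₀1 : Q₀ ≠ ⊥ := by
    intro h
    rw [hQ₀, zpowers_eq_bot] at h
    rw [h, orderOf_one] at hy'
    exact hq.out.one_lt.ne hy'
  have hAQ₀ : A ≤ normalizer (Q₀ : Set G) :=
    (le_centralizer_iff.mp hQ₀C).trans (centralizer_le_normalizer' Q₀)
  obtain ⟨T, hT, hQ₀T⟩ := exists_maxInv_ge hQ₀p hAQ₀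
  have main : ∀ Q ∈ Cfsg.maxInvSubgroups ⊤ A {q}, KConj A Q T ∧ KConj A T Q := by
    intro Q hQ
    have hi := mem_invSubgroups_top_iff.mp hQ.1
    have hb : Q ≠ ⊥ := by
      intro hb
      have : T = Q := hQ.2 T hT.1 (hb ▸ bot_le)
      exact hQ₀1 (le_bot_iff.mp (hb ▸ this ▸ hQ₀T))
    obtain ⟨B, hBE, hBi, hBQ⟩ := exists_hyperplane_fixed hE hE2
      (not_dvd_card_of_isPGroup hp hpq hi.1) (hEA.trans hi.2) hb
    have hcard : Nat.card E = Nat.card B * B.relIndex E := card_eq_card_mul_relIndex hBE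
    have hne : B ≠ ⊥ := by
      intro h
      have hc1 : Nat.card B = 1 := by rw [h]; exact card_bot
      rw [hc1, one_mul] at hcard
      omega
    obtain ⟨⟨x, hx⟩, hx1⟩ := (Subgroup.ne_bot_iff_exists_ne_one).mp hne
    have hx1' : x ≠ 1 := fun h => hx1 (Subtype.ext h)
    have hxQ : Q ⊓ centralizer ({x} : Set G) ≠ ⊥ := by
      intro h
      exact hBQ (le_bot_iff.mp (h ▸ inf_le_inf_left Q (centralizer_le_centralizer_singleton hx)))
    have hxT : T ⊓ centralizer ({x} : Set G) ≠ ⊥ := by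
      intro h
      exact hQ₀1 (le_bot_iff.mp (h ▸ le_inf hQ₀T
        (hQ₀C.trans (centralizer_le_centralizer_singleton (hEA (hBE hx))))))
    exact ⟨kconj_of_common_element hG hA hqA hQ hT hx1' (hEZ (hBE hx)).2 hxQ hxT,
      kconj_of_common_element hG hA hqA hT hQ hx1' (hEZ (hBE hx)).2 hxT hxQ⟩
  exact (main Q₁ h₁).1.trans (main Q₂ h₂).2

end Cfsg.Agent.Lib.Helper30
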