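import Cfsg.Agent.Lib.Helper30.Transitivity3
import Cfsg.Agent.Lib.Helper30.PStable2
import Cfsg.Agent.S1302

/-! B-G 7.6: criteria for the transitivity hypothesis. -/

set_option autoImplicit false
set_option linter.style.haveILetI false

namespace Cfsg.Agent.Lib.Helper30

open Subgroup
open scoped Pointwise commutatorElement

theorem isPConstrained_of_solvable (p : ℕ) [Fact p.Prime] (X : Type*) [Group X] [Finite X]
    [Group.IsSolvable X] : Cfsg.IsPConstrained p X :=
  Cfsg.Agent.Lib.Helper14.isPConstrained_iff.2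
    (centralizer_pCore_le_of_solvable Cfsg.Agent.Lib.Helper14.pPrimeCore_quotient_pPrimeCore)

variable {G : Type*} [Group G]

/-- In a solvable subgroup `X` (`p` odd), `A`-invariant `p'`-subgroups lie in `O_{p'}(X)` if the abelian
`p`-subgroup `A` contains all elements of order `p` of its centralizer. Relative form of S1302. -/
theorem inv_le_pPrimeCore_of_order_p [Finite G] {p : ℕ} [Fact p.Prime] (hp2 : p ≠ 2) {A X Y : Subgroup G}
    (hXs : Group.IsSolvable X) (hAX : A ≤ X)
    (hAp : IsPGroup p A) (hAc : IsMulCommutative A)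
    (hΩ : ∀ x ∈ centralizer (A : Set G), x ∈ X → orderOf x = p → x ∈ A)
    (hYX : Y ≤ X) (hY : ¬ p ∣ Nat.card Y) (hAY : A ≤ normalizer (Y : Set G)) :
    Y ≤ (Cfsg.pPrimeCore p X).map X.subtype := by
  have key := Cfsg.Agent.S1302.result p hp2 (isPConstrained_of_solvable p X) (A.subgroupOf X)
    (by
      refine ⟨⟨fun a b => ?_⟩⟩
      apply Subtype.ext
      apply Subtype.ext
      have := congrArg Subtype.val (hAc.is_comm.comm ⟨a.1.1, a.2⟩ ⟨b.1.1, b.2⟩)
      exact this)
    hAp.comap_subtype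
    (by
      intro x hx hxp
      rw [mem_subgroupOf]
      apply hΩ _ _ x.2 (by rw [Subgroup.orderOf_coe]; exact hxp)
      rw [mem_centralizer_iff]
      intro a ha
      have := (mem_centralizer_iff.1 hx) ⟨a, hAX ha⟩ ha
      exact congrArg Subtype.val this)
    (Y.subgroupOf X) (by rw [card_subgroupOf hYX]; exact hY)
    (by
      intro a ha
      rw [mem_normalizer_iff]
      intro h
      have := (mem_normalizer_iff.1 (hAY ha)) h.1
      simpa [mem_subgroupOf] using this)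
  intro y hy
  exact ⟨⟨y, hYX hy⟩, key hy, rfl⟩

theorem pPrimeCore_le_piCore [Finite G] {p n : ℕ} [hp : Fact p.Prime] (hn : ∀ q : ℕ, q.Prime → q ∣ n → q = p) :
    Cfsg.pPrimeCore p G ≤ Cfsg.piCore (Cfsg.primesNotDvd n) G := by
  haveI := Cfsg.Agent.Lib.Helper14.pPrimeCore_characteristic p G
  apply le_piCore inferInstance
  intro q hq hdvd
  refine ⟨hq, fun h => ?_⟩
  have hqp := hn q hq h
  subst hqp
  have := Cfsg.Agent.Lib.Helper14.card_pPrimeCore_coprime (p := q) (G := G)
  exact hq.one_lt.ne' (Nat.dvd_one.1 (this ▸ Nat.dvd_gcd hdvd dvd_rfl))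

/-- B-G 7.6, general form. -/
theorem transHyp_of_order_p [Finite G] (hG : Cfsg.IsMinSimpleOddOrder G) {p : ℕ} [hp : Fact p.Prime]
    {A : Subgroup G} (hAp : IsPGroup p A) (hAc : IsMulCommutative A) (hA1 : A ≠ ⊥)
    (hΩ : ∀ x ∈ centralizer (A : Set G), orderOf x = p → x ∈ A) : Cfsg.TransitivityHypothesis A := by
  have hpA : p ∣ Nat.card A := by
    rcases hAp.card_eq_or_dvd with h | h
    · exact absurd (Subgroup.card_eq_one.1 h) hA1
    · exact h
  have hp2 : p ≠ 2 := by
    rintro rfl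
    have : Odd (Nat.card A) := Odd.of_dvd_nat hG.1 (Subgroup.card_subgroup_dvd_card A)
    exact (Nat.not_even_iff_odd.2 this) (even_iff_two_dvd.2 hpA)
  obtain ⟨k, hk⟩ := IsPGroup.iff_card.1 hAp
  have hq : ∀ q : ℕ, q.Prime → q ∣ Nat.card A → q = p := by
    intro q hq h
    rw [hk] at h
    exact (Nat.prime_dvd_prime_iff_eq hq hp.out).1 (hq.dvd_of_dvd_pow h)
  refine ⟨hA1, ?_, ?_⟩
  · rintro rfl
    apply hG.2.2.1
    refine ⟨⟨fun a b => ?_⟩⟩
    exact congrArg Subtype.val (hAc.is_comm.comm ⟨a, mem_top a⟩ ⟨b, mem_top b⟩)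
  · intro X hX hAX
    apply le_antisymm
    · apply sSup_le
      rintro Y ⟨hYX, hYπ, hAY⟩
      have h1 := inv_le_pPrimeCore_of_order_p hp2 (solvable_of_ne_top hG hX) hAX hAp hAc
        (fun x hx _ => hΩ x hx) hYX (fun h => (hYπ p hp.out h).2 hpA) hAY
      exact h1.trans (Subgroup.map_mono (pPrimeCore_le_piCore hq))
    · apply le_sSup
      exact ⟨piCoreOf_le _ _, piCoreOf_isPi _ _, hAX.trans (le_normalizer_piCoreOf _ _)⟩

/-- For `A ∈ SCN(P)`, `P` a Sylow `p`-subgroup: every element of order `p` of `C_G(A)` lies in `A`. -/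
theorem mem_of_isSCN_of_orderOf_eq [Finite G] {p : ℕ} [hp : Fact p.Prime] (P : Sylow p G) {A : Subgroup G}
    (hA : Cfsg.IsSCN (P : Subgroup G) A) {x : G} (hx : x ∈ centralizer (A : Set G)) (hxp : orderOf x = p) :
    x ∈ A := by
  obtain ⟨hAP, hPN, hPC⟩ := hA
  have hAp : IsPGroup p A := P.2.to_le hAP
  have hPsyl : IsSylowIn p (P : Subgroup G) (normalizer (A : Set G)) :=
    ⟨hPN, P.2, fun h => P.not_dvd_index (h.trans (relIndex_dvd_index_of_le hPN))⟩
  have hxN : zpowers x ≤ normalizer (A : Set G) := by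
    rw [zpowers_le]; exact centralizer_le_normalizer' A hx
  have hxp' : IsPGroup p (zpowers x) := IsPGroup.of_card (n := 1) (by rw [Nat.card_zpowers, hxp, pow_one])
  have hBp : IsPGroup p (zpowers x ⊔ A : Subgroup G) := hxp'.to_sup_of_normal_right' hAp hxN
  have hBN : zpowers x ⊔ A ≤ normalizer (A : Set G) := sup_le hxN le_normalizer
  have hBC : zpowers x ⊔ A ≤ centralizer (A : Set G) := by
    refine sup_le (by rw [zpowers_le]; exact hx) ?_
    intro a ha
    rw [mem_centralizer_iff]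
    intro b hb
    have h0 : a ∈ (P : Subgroup G) ⊓ centralizer (A : Set G) := by rw [hPC]; exact ha
    exact (mem_centralizer_iff.1 h0.2) b hb
  obtain ⟨Q, hQ, hBQ⟩ := exists_isSylowIn_ge hBN hBp
  obtain ⟨n, hn, hQn⟩ := hPsyl.conj hQ
  have h1 : cj n⁻¹ (zpowers x ⊔ A) ≤ P := by
    rw [cj_le_iff, inv_inv, ← hQn]; exact hBQ
  have h2 : cj n⁻¹ (zpowers x ⊔ A) ≤ centralizer (A : Set G) := by
    have := cj_mono n⁻¹ hBC
    rwa [← centralizer_cj, cj_eq_of_mem_normalizer (inv_mem hn)] at this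
  have h3 : cj n⁻¹ (zpowers x ⊔ A) ≤ A := by
    have := le_inf h1 h2
    rwa [hPC] at this
  have h4 : Nat.card (zpowers x ⊔ A : Subgroup G) ≤ Nat.card A := by
    rw [← card_cj n⁻¹]; exact Subgroup.card_le_of_le h3
  have h5 : A = zpowers x ⊔ A := Subgroup.eq_of_le_of_card_ge le_sup_right h4
  rw [h5]
  exact (le_sup_left : zpowers x ≤ zpowers x ⊔ A) (mem_zpowers x)

end Cfsg.Agent.Lib.Helper30
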